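import Cfsg.Agent.H10.SylowIn
import Cfsg.Agent.H7.Heisen
import Cfsg.Prelude.Def_Sporadic

/-! Double counting and the shape of an involution centralizer. -/

set_option autoImplicit false
set_option linter.unusedVariables false
open Subgroup H10

namespace H14.J4f

theorem conj_mem {G : Type*} [Group G] {H : Subgroup G} {z : G} {S : Set G} (hS : ∀ g, g ∈ S ↔ ∃ h ∈ H, g = h * z * h⁻¹)
    {k : G} (hk : k ∈ H) (s : G) : k * s * k⁻¹ ∈ S ↔ s ∈ S := by
  have a : ∀ k ∈ H, ∀ s ∈ S, k * s * k⁻¹ ∈ S := fun k hk s hs => by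
    obtain ⟨h, hh, rfl⟩ := (hS s).1 hs
    exact (hS _).2 ⟨k * h, mul_mem hk hh, by group⟩
  exact ⟨fun h => by simpa [mul_assoc] using a _ (inv_mem hk) _ h, a k hk s⟩

theorem dc_inv {G : Type*} [Group G] (H : Subgroup G) (z : G) (S : Set G) (hS : ∀ g, g ∈ S ↔ ∃ h ∈ H, g = h * z * h⁻¹)
    {k h : G} (hk : k ∈ H) (hh : h ∈ H) (g : G) :
    {s | s ∈ S ∧ (k * g * h)⁻¹ * s * (k * g * h) ∈ S}.ncard = {s | s ∈ S ∧ g⁻¹ * s * g ∈ S}.ncard := by
  rw [← Set.ncard_preimage_of_injective_subset_range (MulAut.conj k).injective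
    (by rw [(MulAut.conj k).surjective.range_eq]; exact Set.subset_univ _)]
  congr 1
  ext s
  simp only [Set.mem_preimage, Set.mem_setOf_eq, MulAut.conj_apply, conj_mem hS hk]
  rw [← conj_mem hS hh ((k * g * h)⁻¹ * _ * _), show h * ((k * g * h)⁻¹ * (k * s * k⁻¹) * (k * g * h)) * h⁻¹ =
    g⁻¹ * s * g by group]

theorem dc {G : Type*} [Group G] [Finite G] (H : Subgroup G) (z : G) (S : Set G)
    (hS : ∀ g, g ∈ S ↔ ∃ h ∈ H, g = h * z * h⁻¹) {ι : Type*} [Fintype ι] (O : ι → Set (G ⧸ H)) (o n : ι → ℕ)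
    (hcov : ∀ g : G, ∃ i, (g : G ⧸ H) ∈ O i) (hO : ∀ i, (O i).ncard ≤ o i)
    (hn : ∀ i (g : G), (g : G ⧸ H) ∈ O i → {s | s ∈ S ∧ g⁻¹ * s * g ∈ S}.ncard ≤ n i) :
    S.ncard ^ 2 * Nat.card (centralizer ({z} : Set G)) ≤ Nat.card H * ∑ i, o i * n i := by
  classical
  haveI := Fintype.ofFinite G
  choose! w hw e using fun g => (hS g).1
  have h1 : Nat.card (S × S × centralizer ({z} : Set G)) ≤ Nat.card (Σ g : G, {s | s ∈ S ∧ g⁻¹ * s * g ∈ S}) := by
    have k : ∀ a : S × S × centralizer ({z} : Set G), (w a.1 * a.2.2 * (w a.2.1)⁻¹)⁻¹ * a.1 * (w a.1 * a.2.2 * (w a.2.1)⁻¹) =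
        a.2.1 := fun ⟨a, b, c⟩ => by
      have c1 := mem_centralizer_singleton_iff.1 c.2
      calc _ = w b * (c : G)⁻¹ * ((w a)⁻¹ * (w a * z * (w a)⁻¹) * w a * c) * (w b)⁻¹ := by rw [← e a a.2]; group
        _ = w b * (c : G)⁻¹ * (c * z) * (w b)⁻¹ := by rw [c1]; group
        _ = b := by rw [mul_assoc (w b), inv_mul_cancel_left, ← e b b.2]
    refine Nat.card_le_card_of_injective (fun a => ⟨w a.1 * a.2.2 * (w a.2.1)⁻¹, a.1, a.1.2, by rw [k]; exact a.2.1.2⟩)
      fun a b h => ?_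
    have e1 : w a.1 * a.2.2 * (w a.2.1)⁻¹ = w b.1 * b.2.2 * (w b.2.1)⁻¹ := congrArg Sigma.fst h
    have e2 : (a.1 : G) = b.1 := congrArg (fun x : Σ g : G, {s | s ∈ S ∧ g⁻¹ * s * g ∈ S} => (x.2 : G)) h
    have e3 : (a.2.1 : G) = b.2.1 := by rw [← k a, ← k b, e1, e2]
    rw [e2, e3, mul_left_inj, mul_right_inj] at e1
    exact Prod.ext (Subtype.ext e2) (Prod.ext (Subtype.ext e3) (Subtype.ext e1))
  rw [Nat.card_prod, Nat.card_prod, Nat.card_coe_set_eq, ← mul_assoc, ← pow_two, Nat.card_sigma] at h1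
  refine h1.trans ?_
  calc _ ≤ ∑ g : G, ∑ i, if (g : G ⧸ H) ∈ O i then n i else 0 := Finset.sum_le_sum fun g _ => by
        obtain ⟨i, hi⟩ := hcov g
        refine (hn i g hi).trans (le_trans (by rw [if_pos hi]) (Finset.single_le_sum
          (f := fun i => if (g : G ⧸ H) ∈ O i then n i else 0) (fun _ _ => Nat.zero_le _) (Finset.mem_univ i)))
    _ ≤ _ := by
        rw [Finset.sum_comm, Finset.mul_sum]
        refine Finset.sum_le_sum fun i _ => ?_
        rw [← Finset.sum_filter, Finset.sum_const, smul_eq_mul, ← mul_assoc]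
        refine Nat.mul_le_mul_right _ (le_trans (le_of_eq ?_) (Nat.mul_le_mul_left _ (hO i)))
        rw [← Nat.card_coe_set_eq, ← QuotientGroup.card_preimage_mk, Nat.card_eq_fintype_card, Fintype.card_subtype]
        rfl

theorem fin {G : Type} [Group G] [Finite G] (z d c : G) (Q M : Subgroup G) (hQ : Nat.card Q = 2 ^ 13)
    (hx : Cfsg.IsExtraspecial 2 Q) (hd : orderOf d = 3) (hdQ : d ∈ Subgroup.normalizer (Q : Set G)) (hQM : Q ≤ M)
    (hdM : d ∈ M) (hM : M ≤ Subgroup.centralizer {z}) {S : Type} [Group S] (hS : Cfsg.IsM22 S) (ρ : M →* S)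
    (hρ : Function.Surjective ρ) (hk : ∀ g : M, (g : G) ∈ Q → ρ g = 1) (hkd : ρ ⟨d, hdM⟩ = 1)
    (hC : Nat.card (Subgroup.centralizer ({z} : Set G)) ≤ 21799895040) (hc : c ∈ Subgroup.centralizer ({z} : Set G))
    (hcM : c ∉ M) : ∃ (Q N M : Subgroup (Subgroup.centralizer ({z} : Set G))), Q.Normal ∧ N.Normal ∧ Q ≤ N ∧ N ≤ M ∧
      Nat.card Q = 2 ^ 13 ∧ Cfsg.IsExtraspecial 2 Q ∧ Nat.card N = 3 * 2 ^ 13 ∧ M.index = 2 ∧
      ∃ (_ : (N.subgroupOf M).Normal), Cfsg.IsM22 (M ⧸ N.subgroupOf M) := by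
  set C := centralizer ({z} : Set G)
  set K := ρ.ker.map M.subtype with hK
  have KM : K ≤ M := map_subtype_le _
  have QK : Q ≤ K := fun g hg => ⟨⟨g, hQM hg⟩, hk _ hg, rfl⟩
  have NK : Q ⊔ zpowers d ≤ K := sup_le QK (zpowers_le.2 ⟨⟨d, hdM⟩, hkd, rfl⟩)
  have c1 : 3 * 2 ^ 13 ≤ Nat.card (Q ⊔ zpowers d : Subgroup G) := Nat.le_of_dvd Nat.card_pos
    (Nat.Coprime.mul_dvd_of_dvd_of_dvd (by norm_num) (hd ▸ orderOf_dvd_natCard _ (mem_sup_right (mem_zpowers d)))
      (hQ ▸ card_dvd_of_le le_sup_left))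
  have c2 : Nat.card K * 443520 = Nat.card M := by
    rw [hK, card_map_of_injective M.subtype_injective, ← card_mul_index ρ.ker, index_ker, MonoidHom.range_eq_top.2 hρ,
      card_top, hS.2]
  have c3 : Nat.card M * M.relIndex C = Nat.card C := by
    rw [← card_subgroupOf_of_le hM]; exact card_mul_index _
  have c4 : 2 ≤ M.relIndex C := by
    have a : M.relIndex C ≠ 0 := index_ne_zero_of_finite
    have b : M.relIndex C ≠ 1 := fun e => hcM (relIndex_eq_one.1 e hc)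
    omega
  have c5 := card_le_of_le NK
  have c6 : Nat.card K = 3 * 2 ^ 13 := by nlinarith
  have c7 : M.relIndex C = 2 := by rw [← c3, ← c2, c6] at hC; omega
  have e := eq_of_le_of_card_ge NK (by omega)
  have nM : C ≤ NN(M) := (normal_subgroupOf_iff_le_normalizer hM).1 (normal_of_index_eq_two c7)
  have MK : M ≤ NN(K) := (normal_subgroupOf_iff_le_normalizer KM).1 (by
    rw [hK, subgroupOf, comap_map_eq_self_of_injective M.subtype_injective]; infer_instance)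
  have nK : C ≤ NN(K) := le_NN_of_cj_le fun g hg => by
    have l : cj g K ≤ M := cj_le_of_mem_NN (nM hg) KM
    have hn : ((cj g K).subgroupOf M).Normal := normal_subgroupOf (by
      rw [← cj_normalizer, ← cj_eq_of_mem_NN (nM hg)]; exact cj_mono g MK)
    haveI := hS.1
    rcases (Normal.map hn ρ hρ).eq_bot_or_eq_top with k | k
    · exact fun x hx => ⟨⟨x, l hx⟩, (Subgroup.map_eq_bot_iff _).1 k (show (⟨x, l hx⟩ : M) ∈ (cj g K).subgroupOf M from hx), rfl⟩
    · have := card_map_dvd ((cj g K).subgroupOf M) ρ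
      rw [k, card_top, hS.2, card_subgroupOf_of_le l, card_cj, c6] at this
      norm_num at this
  have pQ : IsPGroup 2 Q := .of_card hQ
  have sQ : IsSylowIn 2 Q K := isSylowIn_of_not_dvd QK pQ (by
    have : Nat.card Q * Q.relIndex K = Nat.card K := by rw [← card_subgroupOf_of_le QK]; exact card_mul_index _
    rw [hQ, c6] at this; omega)
  have nQ : C ≤ NN(Q) := le_NN_of_cj_le fun g hg => sQ.le_of_le_NN (isPGroup_cj g pQ) (cj_le_of_mem_NN (nK hg) QK)
    ((cj_le_of_mem_NN (nK hg) QK).trans (e.ge.trans (sup_le (le_NN_self Q) (zpowers_le.2 hdQ))))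
  let φ := ρ.comp (subgroupOfEquivOfLe hM).toMonoidHom
  have hφ : (K.subgroupOf C).subgroupOf (M.subgroupOf C) = φ.ker := by
    ext x
    exact ⟨fun ⟨y, hy, e⟩ => by rwa [show y = subgroupOfEquivOfLe hM x from Subtype.ext e] at hy,
      fun h => ⟨subgroupOfEquivOfLe hM x, h, rfl⟩⟩
  haveI hn : ((K.subgroupOf C).subgroupOf (M.subgroupOf C)).Normal := hφ ▸ inferInstance
  have i := (QuotientGroup.quotientMulEquivOfEq hφ).trans
    (QuotientGroup.quotientKerEquivOfSurjective φ (hρ.comp (subgroupOfEquivOfLe hM).surjective))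
  haveI := hS.1
  exact ⟨Q.subgroupOf C, K.subgroupOf C, M.subgroupOf C, normal_subgroupOf nQ, normal_subgroupOf nK, comap_mono QK,
    comap_mono KM, (card_subgroupOf_of_le (hQM.trans hM)).trans hQ,
    H7.isExtraspecial_of_equiv hx (subgroupOfEquivOfLe (hQM.trans hM)).symm,
    (card_subgroupOf_of_le (KM.trans hM)).trans c6, c7, hn, i.isSimpleGroup, (Nat.card_congr i.toEquiv).trans hS.2⟩

end H14.J4f
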