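import Cfsg.Agent.H23.As10

/-!
Tensor powers of a symplectic form in characteristic two: Clifford-type overgroups of the tensor-wreath stabiliser.
-/

set_option autoImplicit false
set_option linter.unusedVariables false

namespace H14.Tw

open Matrix Module Cfsg Cfsg.Geo H23.As
open scoped MatrixGroups commutatorElement

section ring
variable {R : Type*} [Ring R]

theorem ringA (h2 : (2 : R) = 0) {A0 A M : R} (h0 : A0 * A0 = 0) (hc : A0 * A + A * A0 = 1) (m1 : Commute M A0)
    (m2 : Commute M A) (mm : M * M = 0) :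
    (1 + A0) * (1 + A * M) * (1 + A0) * (1 + A * M) = 1 + (1 + A0) * M := by
  have e : ∀ x : R, x + x = 0 := fun x => by rw [← two_mul, h2, zero_mul]
  have h1 : A0 * A * A0 = A0 := by
    have : A0 * (A0 * A + A * A0) = A0 := by rw [hc, mul_one]
    rw [mul_add, ← mul_assoc, h0, zero_mul, zero_add, ← mul_assoc] at this; exact this
  have h3 : (1 + A0) * (1 + A * M) * (1 + A0) = 1 + (A + 1 + A0) * M := by
    have : (1 + A0) * (1 + A * M) * (1 + A0) = 1 + (A0 + A0) + A0 * A0 + A * M + A0 * A * M + A * (M * A0) +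
        A0 * A * (M * A0) := by noncomm_ring
    rw [this, m1.eq, e, h0, ← mul_assoc A, ← mul_assoc (A0 * A), h1, ← hc]; noncomm_ring
  have h4 : (1 + (A + 1 + A0) * M) * (1 + A * M) = 1 + (1 + A0) * M + (A * M + A * M) +
      (A + 1 + A0) * (M * A) * M := by noncomm_ring
  rw [h3, h4, e, m2.eq, ← mul_assoc, mul_assoc _ M M, mm]; simp

theorem ringB {U X M : R} (m1 : Commute M U) (m2 : Commute M X) (mm : M * M = 0) :
    (1 + U * M) * X * (1 + U * M) = X + (U * X + X * U) * M := by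
  have : (1 + U * M) * X * (1 + U * M) = X + U * (M * X) + X * U * M + U * (M * (X * U)) * M := by noncomm_ring
  rw [this, m2.eq, (m2.mul_right m1).eq, ← mul_assoc U (X * U), mul_assoc _ M M, mm]; noncomm_ring

theorem ringC {U V Y b : R} (m1 : Commute U V) (m2 : Commute U Y) (vv : V * V = 0) (hb : V * Y + Y * V = b) :
    (1 + U * V) * Y * (1 + U * V) = Y + U * b + U * U * (V * b) := by
  have : (1 + U * V) * Y * (1 + U * V) = Y + U * V * Y + (Y * U) * V + U * ((V * Y) * U) * V := by noncomm_ring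
  rw [this, ← m2.eq, ← (m1.mul_right m2).eq, ← hb, mul_add V, ← mul_assoc V V, vv]; noncomm_ring

theorem ringD (h2 : (2 : R) = 0) {N : R} (h : N * N = 0) : (1 + N) * (1 + N) = 1 := by
  have : (1 + N) * (1 + N) = 1 + 2 * N + N * N := by noncomm_ring
  rw [this, h2, h]; simp

end ring

variable {κ : Type} [Fintype κ] [DecidableEq κ] {F : Type*} [Field F] {t : ℕ}

theorem two_mat {ι : Type} [Fintype ι] [DecidableEq ι] (h2 : (2 : F) = 0) : (2 : Matrix ι ι F) = 0 := by
  have : (2 : Matrix ι ι F) = (2 : F) • 1 := by rw [two_smul, one_add_one_eq_two]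
  rw [this, h2, zero_smul]

/-- The involution `1 + N`. -/
def uu {ι : Type} [Fintype ι] [DecidableEq ι] (h2 : (2 : F) = 0) (N : Matrix ι ι F) (h : N * N = 0) : GL ι F :=
  ⟨1 + N, 1 + N, ringD (two_mat h2) h, ringD (two_mat h2) h⟩

theorem cj_uu {ι : Type} [Fintype ι] [DecidableEq ι] (h2 : (2 : F) = 0) (N : Matrix ι ι F) (h : N * N = 0)
    (X : Matrix ι ι F) : cj (uu h2 N h) X = (1 + N) * X * (1 + N) := rfl

/-- `Y` is the adjoint of `X`. -/
def Adj {ι : Type} [Fintype ι] (G X Y : Matrix ι ι F) : Prop := Xᵀ * G = G * Y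

/-- pure tensors of vectors -/
def pv (xs : Fin t → κ → F) : (Fin t → κ) → F := fun a => ∏ i, xs i (a i)

theorem ptens_mulVec (g : Fin t → Matrix κ κ F) (xs : Fin t → κ → F) :
    ptens g *ᵥ pv xs = pv fun i => g i *ᵥ xs i := by
  ext a
  simp only [mulVec, dotProduct, pv, ptens_apply, ← Finset.prod_mul_distrib]
  rw [Finset.prod_univ_sum, Fintype.piFinset_univ]

omit [DecidableEq κ] in
theorem pv_dot (xs ys : Fin t → κ → F) : pv xs ⬝ᵥ pv ys = ∏ i, xs i ⬝ᵥ ys i := by
  classical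
  simp only [dotProduct, pv, ← Finset.prod_mul_distrib]
  rw [Finset.prod_univ_sum, Fintype.piFinset_univ]

omit [Fintype κ] in
theorem pv_single (a : Fin t → κ) : pv (fun i => Pi.single (a i) (1 : F)) = Pi.single a 1 := by
  ext b
  by_cases h : b = a
  · subst h; simp [pv]
  · obtain ⟨i, hi⟩ := Function.ne_iff.1 h
    rw [Pi.single_eq_of_ne h]
    exact Finset.prod_eq_zero (Finset.mem_univ i) (by simp [hi])

theorem zero_of_basis {ι : Type} [Fintype ι] [DecidableEq ι] (q : (ι → F) → F) (ha : ∀ u v, q (u + v) = q u + q v)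
    (hs : ∀ (c : F) v, q (c • v) = c ^ 2 * q v) (hb : ∀ a, q (Pi.single a 1) = 0) (w : ι → F) : q w = 0 := by
  have hw : w ∈ Submodule.span F (Set.range (Pi.basisFun F ι)) := by rw [Basis.span_eq]; trivial
  induction hw using Submodule.span_induction with
  | mem x hx => obtain ⟨a, rfl⟩ := hx; simpa using hb a
  | zero => simpa using hs 0 0
  | add x y _ _ hx hy => rw [ha, hx, hy, add_zero]
  | smul c x _ hx => rw [hs, hx, mul_zero]

/-- Standing data. -/
structure TD (t : ℕ) (G : Matrix κ κ F) (c : F) (Q : ((Fin t → κ) → F) → F) : Prop where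
  two : (2 : F) = 0
  unit : IsUnit G
  symm : Gᵀ = G
  c0 : c ≠ 0
  smul : ∀ (a : F) v, Q (a • v) = a ^ 2 * Q v
  add : ∀ u v, Q (u + v) = Q u + Q v + c * (u ⬝ᵥ (ptens fun _ => G) *ᵥ v)
  pure : ∀ xs, Q (pv xs) = 0

theorem adj_ptens {G : Matrix κ κ F} {g g' : Fin t → Matrix κ κ F} (h : ∀ i, Adj G (g i) (g' i)) :
    Adj (ptens fun _ : Fin t => G) (ptens g) (ptens g') := by
  rw [Adj, ptens_transpose, ptens_mul, ptens_mul]
  exact congrArg ptens (funext h)

theorem adj_one {ι : Type} [Fintype ι] [DecidableEq ι] (G : Matrix ι ι F) : Adj G 1 1 := by simp [Adj]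

theorem adj_update {G : Matrix κ κ F} {g g' : Fin t → Matrix κ κ F} (h : ∀ i, Adj G (g i) (g' i)) (j : Fin t)
    {X Y : Matrix κ κ F} (hX : Adj G X Y) (i : Fin t) :
    Adj G (Function.update g j X i) (Function.update g' j Y i) := by
  by_cases hi : i = j
  · subst hi; simpa using hX
  · simpa [Function.update_of_ne hi] using h i

theorem adj_slot {G X Y : Matrix κ κ F} (h : Adj G X Y) (i : Fin t) :
    Adj (ptens fun _ : Fin t => G) (slot i X) (slot i Y) := by
  rw [slot_apply, slot_apply]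
  exact adj_ptens (adj_update (fun _ => adj_one G) i h)

namespace TD
variable {G : Matrix κ κ F} {c : F} {Q : ((Fin t → κ) → F) → F} (h : TD t G c Q)
include h

theorem unitG : IsUnit (ptens fun _ : Fin t => G) := by
  obtain ⟨u, rfl⟩ := h.unit
  exact (ptensG fun _ : Fin t => u).isUnit

theorem iso {g : Fin t → Matrix κ κ F} (h1 : ∀ i, Adj G (g i) (g i)) (h2 : ptens g * ptens g = 0)
    (h3 : ∃ j, ∀ x, x ⬝ᵥ G *ᵥ (g j *ᵥ x) = 0) : uu h.two (ptens g) h2 ∈ isometryGroup F Q := by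
  have hA := adj_ptens h1
  set N := ptens g
  set B := ptens fun _ : Fin t => G with hB
  have hBs : Bᵀ = B := by rw [hB, ptens_transpose, h.symm]
  have key := zero_of_basis (fun w => Q (N *ᵥ w) + c * (w ⬝ᵥ B *ᵥ (N *ᵥ w))) (fun u v => ?_) (fun a v => ?_) (fun a => ?_)
  · intro u _
    show Q ((1 + N) *ᵥ u) = Q u
    rw [add_mulVec, one_mulVec, h.add, add_assoc, key, add_zero]
  · have e1 : (N *ᵥ u) ⬝ᵥ B *ᵥ (N *ᵥ v) = 0 := by
      rw [dotProduct_mulVec, vecMul_mulVec, hA, ← dotProduct_mulVec, mulVec_mulVec, Matrix.mul_assoc, h2]; simp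
    have e2 : v ⬝ᵥ B *ᵥ (N *ᵥ u) = u ⬝ᵥ B *ᵥ (N *ᵥ v) := by
      rw [dotProduct_comm, mulVec_mulVec, mulVec_mulVec, ← hA, ← vecMul_transpose, transpose_mul, hBs,
        transpose_transpose, ← dotProduct_mulVec, hA]
    simp only [mulVec_add, h.add, ← hB, dotProduct_add, add_dotProduct, e1, e2]
    linear_combination (c * (u ⬝ᵥ B *ᵥ (N *ᵥ v))) * h.two
  · simp only [mulVec_smul, h.smul, smul_dotProduct, dotProduct_smul, smul_eq_mul]; ring
  · obtain ⟨j, hj⟩ := h3
    simp only [← pv_single, N, hB, ptens_mulVec, h.pure, pv_dot]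
    rw [Finset.prod_eq_zero (Finset.mem_univ j) (hj _)]; simp

theorem pres {g : GL (Fin t → κ) F} (hg : g ∈ isometryGroup F Q) :
    g.1ᵀ * (ptens fun _ : Fin t => G) * g.1 = ptens fun _ : Fin t => G := by
  have h1 : ∀ v, Q ((g : Matrix _ _ F) *ᵥ v) = Q v := fun v => hg v v
  ext a b
  have := h1 (Pi.single a 1 + Pi.single b 1)
  rw [mulVec_add, h.add, h.add, h1, h1, add_right_inj, mul_right_inj' h.c0, dotProduct_mulVec, vecMul_mulVec,
    ← dotProduct_mulVec, mulVec_mulVec] at this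
  simpa using this

theorem adj_cj {g : GL (Fin t → κ) F} (hg : g ∈ isometryGroup F Q) {X Y : Matrix (Fin t → κ) (Fin t → κ) F}
    (hX : Adj (ptens fun _ : Fin t => G) X Y) : Adj (ptens fun _ : Fin t => G) (cj g X) (cj g Y) := by
  have h1 := h.pres hg
  have hu : IsUnit (g : Matrix (Fin t → κ) (Fin t → κ) F)ᵀ := by
    rw [isUnit_iff_isUnit_det, det_transpose, ← isUnit_iff_isUnit_det]; exact g.isUnit
  set B := ptens fun _ : Fin t => G
  refine hu.mul_left_cancel (g.isUnit.mul_right_cancel ?_)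
  rw [← Matrix.mul_assoc, ← transpose_mul, cj_mul_val, transpose_mul, Matrix.mul_assoc, Matrix.mul_assoc,
    ← Matrix.mul_assoc _ B, h1, hX, ← Matrix.mul_assoc _ B, Matrix.mul_assoc _ (cj g Y), cj_mul_val,
    ← Matrix.mul_assoc, h1]

theorem adj_of_slot [Nonempty κ] {X Y : Matrix κ κ F} {i : Fin t}
    (hX : Adj (ptens fun _ : Fin t => G) (slot i X) (slot i Y)) : Adj G X Y := by
  obtain ⟨u, rfl⟩ := h.unit
  have h1 : Adj (u : Matrix κ κ F) X (u⁻¹ * Xᵀ * u) := by simp [Adj, ← Matrix.mul_assoc]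
  have h2 := (adj_slot h1 i).symm.trans hX
  rw [← algHom_injective (slot i) (h.unitG.mul_left_cancel h2)]; exact h1

end TD

end H14.Tw
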