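import Cfsg.Agent.H14.TwA

/-!
The Clifford overgroup of the tensor-wreath stabiliser (characteristic two).
-/

set_option autoImplicit false
set_option linter.unusedVariables false

namespace H14.Tw

open Matrix Module Cfsg Cfsg.Geo H23.As
open scoped MatrixGroups commutatorElement

variable {κ : Type} [Fintype κ] [DecidableEq κ] {F : Type*} [Field F] {t : ℕ}

/-- The Clifford generators in one tensor factor. -/
def W1 (G : Matrix κ κ F) (b : Prop) (X : Matrix κ κ F) : Prop :=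
  Adj G X X ∧ (∃ c : F, X * X = c • 1) ∧ (b → ∃ Y Y', Adj G Y Y' ∧ X = Y + Y')

/-- The span of the Clifford generators. -/
def WW (t : ℕ) (G : Matrix κ κ F) (b : Prop) : Submodule F (Matrix (Fin t → κ) (Fin t → κ) F) :=
  Submodule.span F {A | ∃ i X, W1 G b X ∧ A = slot i X}

theorem slot_mem {G : Matrix κ κ F} {b : Prop} {X : Matrix κ κ F} (h : W1 G b X) (i : Fin t) :
    slot i X ∈ WW t G b := Submodule.subset_span ⟨i, X, h, rfl⟩

theorem cj_mem {G : Matrix κ κ F} {b : Prop} {g : GL (Fin t → κ) F}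
    (h : ∀ i X, W1 G b X → cj g (slot i X) ∈ WW t G b) : ∀ A ∈ WW t G b, cj g A ∈ WW t G b := by
  intro A hA
  induction hA using Submodule.span_induction with
  | mem x hx => obtain ⟨i, X, h1, rfl⟩ := hx; exact h i X h1
  | zero => simp
  | add x y _ _ hx hy => rw [map_add]; exact add_mem hx hy
  | smul c x _ hx => rw [map_smul]; exact Submodule.smul_mem _ _ hx

/-- The normaliser of the span. -/
def NN (t : ℕ) (G : Matrix κ κ F) (b : Prop) : Subgroup (GL (Fin t → κ) F) where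
  carrier := {g | (∀ A ∈ WW t G b, cj g A ∈ WW t G b) ∧ ∀ A ∈ WW t G b, cj g⁻¹ A ∈ WW t G b}
  mul_mem' ha hb := ⟨fun A hA => by rw [cj_mul]; exact ha.1 _ (hb.1 _ hA),
    fun A hA => by rw [_root_.mul_inv_rev, cj_mul]; exact hb.2 _ (ha.2 _ hA)⟩
  one_mem' := by simp
  inv_mem' ha := ⟨ha.2, by simpa using ha.1⟩

theorem sq_scalar {a0 a : Matrix κ κ F} [Nonempty κ] (h0 : a0 * a0 = 0) (h1 : a0 * a + a * a0 = 1) (c : F) :
    a0 ≠ c • 1 := by
  rintro rfl
  have : c = 0 := by simpa [smul_smul] using h0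
  subst this; simp at h1

namespace TD
variable {G : Matrix κ κ F} {c : F} {Q : ((Fin t → κ) → F) → F} (h : TD t G c Q) {b : Prop}
include h

theorem inv [Nonempty κ] {g : GL (Fin t → κ) F} (hg : g ∈ isometryGroup F Q) {i j : Fin t}
    (hp : ∀ X, ∃ Y, cj g (slot i X) = slot j Y) {X : Matrix κ κ F} (hX : W1 G b X) :
    cj g (slot i X) ∈ WW t G b := by
  obtain ⟨Y, hY⟩ := hp X
  have ha : ∀ {X X' Y Y'}, cj g (slot i X) = slot j Y → cj g (slot i X') = slot j Y' → Adj G X X' → Adj G Y Y' :=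
    fun h1 h2 h3 => h.adj_of_slot (i := j) (h1 ▸ h2 ▸ h.adj_cj hg (adj_slot h3 i))
  rw [hY]
  refine slot_mem ⟨ha hY hY hX.1, ?_, fun hb => ?_⟩ j
  · obtain ⟨s, hs⟩ := hX.2.1
    exact ⟨s, algHom_injective (slot j) (by rw [map_mul, ← hY, ← map_mul, ← map_mul, hs]; simp)⟩
  · obtain ⟨Z, Z', h1, rfl⟩ := hX.2.2 hb
    obtain ⟨U, hU⟩ := hp Z
    obtain ⟨U', hU'⟩ := hp Z'
    exact ⟨U, U', ha hU hU' h1, algHom_injective (slot j) (by rw [map_add, ← hY, ← hU, ← hU', map_add, map_add])⟩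

theorem anti (cl : ∀ X Y, W1 G b X → W1 G b Y → ∃ s : F, X * Y + Y * X = s • 1) {D : Matrix κ κ F}
    (hD : W1 G b D) (i : Fin t) : ∀ A ∈ WW t G b, ∃ s : F, A * slot i D + slot i D * A = s • 1 := by
  intro A hA
  induction hA using Submodule.span_induction with
  | mem x hx =>
    obtain ⟨j, X, h1, rfl⟩ := hx
    by_cases hj : j = i
    · subst hj
      obtain ⟨s, hs⟩ := cl X D h1 hD
      exact ⟨s, by rw [← map_mul, ← map_mul, ← map_add, hs]; simp⟩
    · exact ⟨0, by rw [(commute_slot hj X D).eq, ← two_mul, two_mat h.two]; simp⟩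
  | zero => exact ⟨0, by simp⟩
  | add x y _ _ hx hy =>
    obtain ⟨s, hs⟩ := hx
    obtain ⟨s', hs'⟩ := hy
    exact ⟨s + s', by rw [add_smul, ← hs, ← hs']; noncomm_ring⟩
  | smul a x _ hx =>
    obtain ⟨s, hs⟩ := hx
    exact ⟨a * s, by rw [mul_smul, ← hs, smul_add, Matrix.smul_mul, Matrix.mul_smul]⟩

theorem omega {i j : Fin t} (hij : j ≠ i) (hG : ∀ x, x ⬝ᵥ G *ᵥ x = 0) {a0 a : Matrix κ κ F} (h0 : Adj G a0 a0)
    (h1 : Adj G a a) (h2 : a0 * a0 = 0) (h3 : a0 * a + a * a0 = 1) {g : Fin t → Matrix κ κ F} (g0 : g i = 1)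
    (g1 : ∀ l, Adj G (g l) (g l)) (g2 : ptens g * ptens g = 0)
    (g3 : ∃ l, ∀ x, x ⬝ᵥ G *ᵥ (Function.update g i a l *ᵥ x) = 0) :
    (∀ X, Commute (ptens g) (slot i X)) ∧ ∃ y ∈ ⁅isometryGroup F Q, isometryGroup F Q⁆, y⁻¹ = y ∧
      ∀ A, cj y A = (1 + slot i (1 + a0) * ptens g) * A * (1 + slot i (1 + a0) * ptens g) := by
  have hc : ∀ X, Commute (ptens g) (slot i X) := fun X => by
    rw [Commute, SemiconjBy, ptens_mul_slot, slot_mul_ptens, g0, Matrix.mul_one, Matrix.one_mul]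
  have sq : ∀ X, slot i X * ptens g * (slot i X * ptens g) = 0 := fun X => by
    rw [Matrix.mul_assoc, ← Matrix.mul_assoc (ptens g), (hc X).eq, Matrix.mul_assoc, g2]; simp
  have e1 : ptens (Function.update g i a) = slot i a * ptens g := by rw [slot_mul_ptens, g0, Matrix.mul_one]
  have s0 : (slot i a0 : Matrix (Fin t → κ) _ F) * slot i a0 = 0 := by rw [← map_mul, h2, map_zero]
  have i1 := h.iso (g := Function.update (fun _ => 1) i a0) (adj_update (fun _ => adj_one G) i h0) s0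
    ⟨j, fun x => by simpa [Function.update_of_ne hij] using hG x⟩
  have i2 := h.iso (adj_update g1 i h1) (by rw [e1]; exact sq a) g3
  refine ⟨hc, uu h.two _ (sq (1 + a0)), ?_, rfl, fun A => rfl⟩
  convert Subgroup.commutator_mem_commutator i1 i2 using 1
  refine Units.ext (Eq.symm ?_)
  show (1 + slot i a0) * (1 + ptens _) * (1 + slot i a0) * (1 + ptens _) = 1 + slot i (1 + a0) * ptens g
  rw [e1, map_add, map_one]
  exact ringA (two_mat h.two) s0 (by rw [← map_mul, ← map_mul, ← map_add, h3, map_one]) (hc _) (hc _) g2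

end TD

theorem central_of_slot [Nonempty κ] {i : Fin t} {X : Matrix κ κ F}
    (h : ∀ Z, Commute (slot i X : Matrix (Fin t → κ) _ F) (slot i Z)) : ∃ s : F, X = s • 1 := by
  have : ∀ Z, X * Z = Z * X := fun Z => algHom_injective (slot i) (by rw [map_mul, map_mul, (h Z).eq])
  obtain ⟨s, hs⟩ := Matrix.mem_range_scalar_iff_commute_single'.2 (fun i j => (this _).symm : ∀ i j, Commute _ X)
  exact ⟨s, by rw [← hs]; simp [smul_one_eq_diagonal]⟩

theorem TD.main {k : ℕ} [NeZero k] {G : Matrix (Fin k) (Fin k) F} {c : F} {Q : ((Fin t → Fin k) → F) → F}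
    (h : TD t G c Q) {b : Prop} (cl : ∀ X Y, W1 G b X → W1 G b Y → ∃ s : F, X * Y + Y * X = s • 1)
    {i j : Fin t} (hij : j ≠ i) (hG : ∀ x, x ⬝ᵥ G *ᵥ x = 0) {a0 a : Matrix (Fin k) (Fin k) F} (h0 : W1 G b a0)
    (h1 : W1 G b a) (h2 : a0 * a0 = 0) (h3 : a0 * a + a * a0 = 1)
    (x3 : ∃ l, ∀ x, x ⬝ᵥ G *ᵥ (Function.update (Function.update (fun _ : Fin t => (1 : Matrix _ _ F)) j a0) i a l *ᵥ x) = 0)
    {g : Fin t → Matrix (Fin k) (Fin k) F} (g0 : g i = 1) (g1 : ∀ l, Adj G (g l) (g l)) (g2 : ptens g * ptens g = 0)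
    (g3 : ∃ l, ∀ x, x ⬝ᵥ G *ᵥ (Function.update g i a l *ᵥ x) = 0)
    (g4 : ∀ s : F, ptens g * slot j a + slot j a * ptens g ≠ s • 1) :
    ∃ K : Subgroup (GL (Fin t → Fin k) F), tensorWreathStandard k t F ⊓ ⁅isometryGroup F Q, isometryGroup F Q⁆ < K ∧
      K < ⁅isometryGroup F Q, isometryGroup F Q⁆ := by
  have e2 : ∀ A : Matrix (Fin t → Fin k) (Fin t → Fin k) F, A + A = 0 := fun A => by
    rw [← two_mul, two_mat h.two, zero_mul]
  have hw : ∀ y ∈ tensorWreathStandard k t F, ∀ l, ∃ l', ∀ X, ∃ Y, cj y (slot l X) = slot l' Y := fun y hy l => by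
    obtain ⟨σ, hσ⟩ := exists_perm_of_mem_wreath (e := Equiv.refl _) (P := 1) (g := y) (by
      rw [tensorWreathSubgroup, mem_map_tr]; convert hy using 1; exact Units.ext (by simp [trG, tr, cj]))
    exact ⟨σ l, by simpa [tr_apply] using hσ l⟩
  have hI := Subgroup.commutator_le_self (isometryGroup F Q)
  have hU : ∀ l : Fin t, (slot l (1 + a0) : Matrix (Fin t → Fin k) _ F) * slot l a + slot l a * slot l (1 + a0) = 1 :=
    fun l => by
    rw [← map_mul, ← map_mul, ← map_add, add_mul, mul_add, one_mul, mul_one, add_add_add_comm, h3, map_add, map_add,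
      e2, zero_add, map_one]
  refine ⟨⁅isometryGroup F Q, isometryGroup F Q⁆ ⊓ NN t G b, lt_of_le_of_ne (fun y hy => ⟨hy.2, ?_, ?_⟩) fun he => ?_,
    lt_of_le_of_ne inf_le_left fun he => ?_⟩
  · exact cj_mem fun l X hX => h.inv (hI hy.2) (hw y hy.1 l).choose_spec hX
  · exact cj_mem fun l X hX => h.inv (inv_mem (hI hy.2)) (hw _ (inv_mem hy.1) l).choose_spec hX
  · have s0 : (slot j a0 : Matrix (Fin t → Fin k) _ F) * slot j a0 = 0 := by rw [← map_mul, h2, map_zero]
    obtain ⟨hc, y, y1, y2, y3⟩ := h.omega hij hG h0.1 h1.1 h2 h3 (g := Function.update (fun _ => 1) j a0)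
      (Function.update_of_ne hij.symm _ _) (adj_update (fun _ => adj_one G) j h0.1) s0 x3
    simp only [← slot_apply] at hc y3
    have u2 : (slot i (1 + a0) : Matrix (Fin t → Fin k) _ F) * slot i (1 + a0) = 1 := by
      rw [← map_mul, ringD (two_mat h.two) h2, map_one]
    have y4 : ∀ X (s : F), a0 * X + X * a0 = s • 1 →
        cj y (slot j X) = slot j X + s • slot i (1 + a0) + s • slot j a0 := fun X s hs => by
      rw [y3, ringC (hc _).symm (commute_slot hij.symm _ _) s0 (b := s • 1)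
        (by rw [← map_mul, ← map_mul, ← map_add, hs]; simp), u2]; simp
    have one : (1 : Matrix (Fin t → Fin k) _ F) ∈ WW t G b → ∀ A ∈ WW t G b, cj y A ∈ WW t G b := fun h5 =>
      cj_mem fun l X hX => by
        obtain ⟨s, hs⟩ := cl a0 X h0 hX
        by_cases hl : l = j
        · rw [hl, y4 X s hs, map_add, map_one]
          exact add_mem (add_mem (slot_mem hX _) (Submodule.smul_mem _ _ (add_mem h5 (slot_mem h0 _))))
            (Submodule.smul_mem _ _ (slot_mem h0 _))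
        rw [y3, ringB (hc _) (commute_slot (Ne.symm hl) _ _) s0]
        refine add_mem (slot_mem hX _) ?_
        by_cases hl' : l = i
        · rw [hl', ← map_mul, ← map_mul, ← map_add, add_mul, mul_add, one_mul, mul_one, add_add_add_comm, hs,
            map_add, map_add, e2, zero_add]
          simpa using Submodule.smul_mem _ s (slot_mem h0 j)
        · rw [(commute_slot hl' _ _).eq, e2, zero_mul]; exact zero_mem _
    have h5 : (1 : Matrix (Fin t → Fin k) _ F) ∈ WW t G b := by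
      have e : a0 + a0 * a * a0 = 0 := by
        have : a0 * (a0 * a + a * a0) = a0 := by rw [h3, mul_one]
        rw [mul_add, ← mul_assoc, h2, zero_mul, zero_add, ← mul_assoc] at this
        rw [this, ← two_mul, two_mat h.two, zero_mul]
      rw [← map_one (slot i)]
      refine slot_mem ⟨adj_one G, ⟨1, by simp⟩, fun _ => ⟨a0 * a, a * a0, ?_, h3.symm⟩⟩ i
      rw [Adj, transpose_mul, Matrix.mul_assoc, h0.1, ← Matrix.mul_assoc, h1.1, Matrix.mul_assoc]
    have hy : y ∈ tensorWreathStandard k t F ⊓ ⁅isometryGroup F Q, isometryGroup F Q⁆ :=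
      he ▸ ⟨y1, one h5, y2 ▸ one h5⟩
    obtain ⟨l, hl⟩ := hw y hy.1 j
    obtain ⟨Y, hY⟩ := hl a
    rw [y4 a 1 (by rw [h3, one_smul]), one_smul, one_smul, add_right_comm, ← map_add] at hY
    by_cases hl' : l = i
    · obtain ⟨s, hs⟩ := central_of_slot (i := j) (X := a + a0) fun Z => by
        rw [eq_sub_of_add_eq hY, hl', ← map_sub]; exact commute_slot hij.symm _ _
      have : a0 * (a + a0) + (a + a0) * a0 = 1 := by rw [mul_add, add_mul, h2, add_zero, add_zero, h3]
      rw [hs, Matrix.mul_smul, Matrix.smul_mul, mul_one, one_mul, ← two_mul, two_mat h.two, zero_mul] at this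
      exact zero_ne_one this
    · obtain ⟨s, hs⟩ := central_of_slot (i := i) (X := 1 + a0) fun Z => by
        rw [eq_sub_of_add_eq' hY]; exact (commute_slot hl' _ _).sub_left (commute_slot hij _ _)
      exact sq_scalar h2 h3 (s - 1) (by rw [sub_smul, ← hs]; simp)
  · obtain ⟨hc, y, y1, y2, y3⟩ := h.omega hij hG h0.1 h1.1 h2 h3 g0 g1 g2 g3
    have h4 := (he.ge y1).2.1 _ (slot_mem h1 i)
    rw [y3, ringB (hc _) (hc _) g2, hU, one_mul, add_mem_cancel_left (slot_mem h1 i)] at h4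
    obtain ⟨s, hs⟩ := h.anti cl h1 j _ h4
    exact g4 s hs

end H14.Tw
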