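import Cfsg.Agent.H14.TwB

/-!
The cases `k = 2` and `k = 4` of the Clifford overgroup.
-/

set_option autoImplicit false
set_option linter.unusedVariables false

namespace H14.Tw

open Matrix Module Cfsg Cfsg.Geo H23.As
open scoped MatrixGroups commutatorElement

variable {F : Type*} [Field F] {t : ℕ}

theorem cl_two (h2 : (2 : F) = 0) {G : Matrix (Fin 2) (Fin 2) F} (hu : IsUnit G) (hs : Gᵀ = G) (hd : ∀ i, G i i = 0)
    (X : Matrix (Fin 2) (Fin 2) F) : Adj G X X ↔ X 0 0 = X 1 1 := by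
  have h1 : G 1 0 = G 0 1 := congrFun (congrFun hs 0) 1
  have h0 : G 0 1 ≠ 0 := fun h => ((isUnit_iff_isUnit_det _).1 hu).ne_zero (by simp [det_fin_two, hd, h])
  refine ⟨fun h => ?_, fun h => ?_⟩
  · have := congrFun (congrFun h 0) 1
    simp only [mul_apply, Fin.sum_univ_two, transpose_apply, hd, mul_zero, zero_mul, add_zero, zero_add] at this
    exact mul_left_cancel₀ h0 (by linear_combination this)
  · ext i j
    fin_cases i <;> fin_cases j <;> simp [mul_apply, Fin.sum_univ_two, hd, h, h1] <;> ring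

theorem TD.two_case {G : Matrix (Fin 2) (Fin 2) F} {c : F} {Q : ((Fin t → Fin 2) → F) → F} (h : TD t G c Q)
    (ht : 4 ≤ t) (hG : ∀ x, x ⬝ᵥ G *ᵥ x = 0) :
    ∃ K : Subgroup (GL (Fin t → Fin 2) F), tensorWreathStandard 2 t F ⊓ ⁅isometryGroup F Q, isometryGroup F Q⁆ < K ∧
      K < ⁅isometryGroup F Q, isometryGroup F Q⁆ := by
  obtain ⟨t, rfl⟩ : ∃ s, t = s + 4 := ⟨t - 4, by omega⟩
  have hd : ∀ i, G i i = 0 := fun i => by simpa using hG (Pi.single i 1)
  have ad := cl_two h.two h.unit h.symm hd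
  have h2 : (single 0 1 1 : Matrix (Fin 2) (Fin 2) F) * single 0 1 1 = 0 := by simp
  have h3 : (single 0 1 1 : Matrix (Fin 2) (Fin 2) F) * single 1 0 1 + single 1 0 1 * single 0 1 1 = 1 := by
    ext i j; fin_cases i <;> fin_cases j <;> simp
  have a0 : Adj G (single 0 1 1) (single 0 1 1) := (ad _).2 (by simp)
  have n1 : (1 : Fin (t + 4)) ≠ 0 := by simp [Fin.ext_iff]
  have n2 : (2 : Fin (t + 4)) ≠ 0 := by simp [Fin.ext_iff, Nat.mod_eq_of_lt]
  have n3 : (2 : Fin (t + 4)) ≠ 1 := by simp [Fin.ext_iff, Nat.mod_eq_of_lt]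
  have n4 : (3 : Fin (t + 4)) ≠ 0 := by simp [Fin.ext_iff, Nat.mod_eq_of_lt]
  have n5 : (3 : Fin (t + 4)) ≠ 1 := by simp [Fin.ext_iff, Nat.mod_eq_of_lt]
  have n6 : (3 : Fin (t + 4)) ≠ 2 := by simp [Fin.ext_iff, Nat.mod_eq_of_lt]
  have e : ptens (Function.update (Function.update (fun _ : Fin (t + 4) => (1 : Matrix (Fin 2) (Fin 2) F)) 1
      (single 0 1 1)) 2 (single 0 1 1)) = slot 2 (single 0 1 1) * slot 1 (single 0 1 1) := by
    rw [slot_apply 1, slot_mul_ptens, Function.update_of_ne n3, mul_one]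
  refine h.main (b := False) (i := 0) (j := 1) (fun X Y hX hY => ?_) n1 hG ⟨a0, ⟨0, by simp⟩, False.elim⟩
    ⟨(ad _).2 (by simp), ⟨0, by simp⟩, False.elim⟩ h2 h3
    ⟨3, fun x => by simpa [Function.update_of_ne n4, Function.update_of_ne n5] using hG x⟩
    (g := Function.update (Function.update (fun _ => 1) 1 (single 0 1 1)) 2 (single 0 1 1))
    (by rw [Function.update_of_ne n2.symm, Function.update_of_ne n1.symm])
    (adj_update (adj_update (fun _ => adj_one G) _ a0) _ a0) ?_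
    ⟨3, fun x => by simpa [Function.update_of_ne n4, Function.update_of_ne n5, Function.update_of_ne n6] using hG x⟩
    fun s hs => ?_
  · have e1 := (ad _).1 hX.1
    have e2 := (ad _).1 hY.1
    refine ⟨X 0 1 * Y 1 0 + Y 0 1 * X 1 0, ?_⟩
    ext i j
    fin_cases i <;> fin_cases j <;> simp [mul_apply, Fin.sum_univ_two, e1, e2]
    · linear_combination (X 1 1 * Y 1 1) * h.two
    · linear_combination (X 1 1 * Y 0 1 + X 0 1 * Y 1 1) * h.two
    · linear_combination (X 1 1 * Y 1 0 + X 1 0 * Y 1 1) * h.two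
    · linear_combination (X 1 1 * Y 1 1) * h.two
  · rw [e, mul_assoc, ← mul_assoc (slot 1 _), (commute_slot n3.symm _ _).eq, mul_assoc, ← map_mul, h2]; simp
  · rw [e, ← mul_assoc, (commute_slot n3.symm _ _).eq, mul_assoc, mul_assoc, ← mul_add, ← map_mul, ← map_mul,
      ← map_add, h3, map_one, mul_one] at hs
    exact sq_scalar h2 h3 s (algHom_injective (slot 2) (by rw [hs]; simp))

/-- dual of an alternating `4 × 4` matrix in characteristic two -/
def hat (M : Matrix (Fin 4) (Fin 4) F) : Matrix (Fin 4) (Fin 4) F :=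
  !![0, M 2 3, M 1 3, M 1 2; M 2 3, 0, M 0 3, M 0 2; M 1 3, M 0 3, 0, M 0 1; M 1 2, M 0 2, M 0 1, 0]

/-- polarised Pfaffian -/
def tt (M N : Matrix (Fin 4) (Fin 4) F) : F :=
  M 0 1 * N 2 3 + M 2 3 * N 0 1 + M 0 2 * N 1 3 + M 1 3 * N 0 2 + M 0 3 * N 1 2 + M 1 2 * N 0 3

/-- Pfaffian -/
def pf (M : Matrix (Fin 4) (Fin 4) F) : F := M 0 1 * M 2 3 + M 0 2 * M 1 3 + M 0 3 * M 1 2

theorem alt_eq {M : Matrix (Fin 4) (Fin 4) F} (hs : Mᵀ = M) (hd : ∀ i, M i i = 0) :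
    M = !![0, M 0 1, M 0 2, M 0 3; M 0 1, 0, M 1 2, M 1 3; M 0 2, M 1 2, 0, M 2 3; M 0 3, M 1 3, M 2 3, 0] := by
  have : ∀ i j, M i j = M j i := fun i j => congrFun (congrFun hs j) i
  ext i j
  fin_cases i <;> fin_cases j <;> simp [hd] <;> exact this _ _

theorem hat_mul (h2 : (2 : F) = 0) {M : Matrix (Fin 4) (Fin 4) F} (hs : Mᵀ = M) (hd : ∀ i, M i i = 0) :
    hat M * M = pf M • 1 := by
  haveI : CharP F 2 := CharTwo.of_one_ne_zero_of_two_eq_zero one_ne_zero h2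
  nth_rw 2 [alt_eq hs hd]
  ext i j
  fin_cases i <;> fin_cases j <;> simp [hat, pf, mul_apply, Fin.sum_univ_four] <;> ring_nf <;> simp [h2]

set_option maxHeartbeats 1000000 in
theorem mul_hat (h2 : (2 : F) = 0) {M N : Matrix (Fin 4) (Fin 4) F} (hs : Mᵀ = M) (hd : ∀ i, M i i = 0)
    (hs' : Nᵀ = N) (hd' : ∀ i, N i i = 0) : M * hat N + N * hat M = tt M N • 1 := by
  haveI : CharP F 2 := CharTwo.of_one_ne_zero_of_two_eq_zero one_ne_zero h2
  nth_rw 1 [alt_eq hs hd]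
  nth_rw 2 [alt_eq hs' hd']
  ext i j
  fin_cases i <;> fin_cases j <;> simp [hat, tt, mul_apply, Fin.sum_univ_four] <;> ring_nf <;> simp [h2]

section four
variable {G : Matrix (Fin 4) (Fin 4) F} (h2 : (2 : F) = 0) (hu : IsUnit G) (hs : Gᵀ = G) (hd : ∀ i, G i i = 0)
include h2 hu hs hd

theorem pf_ne : pf G ≠ 0 := fun h => by
  have h1 : hat G = 0 := hu.mul_right_cancel (by rw [hat_mul h2 hs hd, h]; simp)
  have h3 := fun i j => congrFun (congrFun h1 i) j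
  have h4 := alt_eq hs hd
  rw [show G 0 1 = 0 from h3 2 3, show G 0 2 = 0 from h3 1 3, show G 0 3 = 0 from h3 1 2] at h4
  refine ((isUnit_iff_isUnit_det _).1 hu).ne_zero (det_eq_zero_of_row_eq_zero 0 fun j => ?_)
  rw [h4]; fin_cases j <;> rfl

theorem quad {X : Matrix (Fin 4) (Fin 4) F} (h1 : (G * X)ᵀ = G * X) (h3 : ∀ i, (G * X) i i = 0) :
    pf G • (X * X) + pf (G * X) • 1 = tt (G * X) G • X := by
  have := congrArg (· * (G * X)) (mul_hat h2 h1 h3 hs hd)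
  simp only [add_mul, mul_assoc, hat_mul h2 h1 h3, ← mul_assoc (hat G), hat_mul h2 hs hd] at this
  refine hu.mul_left_cancel ?_
  simpa [mul_add] using this

omit hu hd in
theorem alt_of {X : Matrix (Fin 4) (Fin 4) F} (h : ∃ Y Y', Adj G Y Y' ∧ X = Y + Y') :
    (G * X)ᵀ = G * X ∧ ∀ i, (G * X) i i = 0 := by
  obtain ⟨Y, Y', h1, rfl⟩ := h
  have e : G * Y' = (G * Y)ᵀ := by rw [transpose_mul, hs]; exact h1.symm
  rw [mul_add, e]
  exact ⟨by rw [transpose_add, transpose_transpose, add_comm], fun i => by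
    rw [Matrix.add_apply, transpose_apply, ← two_mul, h2, zero_mul]⟩

theorem tt_zero {X : Matrix (Fin 4) (Fin 4) F} (h : W1 G True X) : tt (G * X) G = 0 := by
  by_contra h0
  obtain ⟨h1, h3⟩ := alt_of h2 hs (h.2.2 trivial)
  obtain ⟨s, h4⟩ := h.2.1
  have h5 := quad h2 hu hs hd h1 h3
  rw [h4, smul_smul, ← add_smul] at h5
  have h6 := congrArg ((tt (G * X) G)⁻¹ • ·) h5
  simp only [smul_smul, inv_mul_cancel₀ h0, one_smul] at h6
  generalize (tt (G * X) G)⁻¹ * _ = r at h6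
  subst h6
  refine h0 ?_
  simp only [tt, Matrix.mul_smul, mul_one, Matrix.smul_apply, smul_eq_mul]
  linear_combination (r * (G 0 1 * G 2 3 + G 0 2 * G 1 3 + G 0 3 * G 1 2)) * h2

theorem cl_four (X Y : Matrix (Fin 4) (Fin 4) F) (hX : W1 G True X) (hY : W1 G True Y) :
    ∃ s : F, X * Y + Y * X = s • 1 := by
  obtain ⟨h1, h3⟩ := alt_of h2 hs (hX.2.2 trivial)
  obtain ⟨h4, h5⟩ := alt_of h2 hs (hY.2.2 trivial)
  have h6 := quad h2 hu hs hd (X := X + Y) (by rw [mul_add, transpose_add, h1, h4])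
    fun i => by rw [mul_add, Matrix.add_apply, h3, h5, add_zero]
  have h7 : tt (G * (X + Y)) G = tt (G * X) G + tt (G * Y) G := by simp only [tt, mul_add G, Matrix.add_apply]; ring
  rw [h7, tt_zero h2 hu hs hd hX, tt_zero h2 hu hs hd hY, add_zero, zero_smul] at h6
  obtain ⟨a, ha⟩ := hX.2.1
  obtain ⟨b, hb⟩ := hY.2.1
  have h8 := congrArg ((pf G)⁻¹ • ·) h6
  simp only [smul_add, smul_smul, inv_mul_cancel₀ (pf_ne h2 hu hs hd), one_smul, smul_zero] at h8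
  rw [add_mul, mul_add, mul_add, ha, hb] at h8
  refine ⟨-(a + b + (pf G)⁻¹ * pf (G * (X + Y))), ?_⟩
  rw [neg_smul, eq_neg_iff_add_eq_zero, ← h8, add_smul, add_smul]; abel

end four

/-- rank one maps -/
def ro {κ : Type} [Fintype κ] (G : Matrix κ κ F) (x y : κ → F) : Matrix κ κ F := vecMulVec x (y ᵥ* G)

theorem ro_mulVec {κ : Type} [Fintype κ] (G : Matrix κ κ F) (x y v : κ → F) :
    ro G x y *ᵥ v = (y ⬝ᵥ G *ᵥ v) • x := by
  rw [ro, vecMulVec_mulVec, dotProduct_mulVec]; ext; simp [mul_comm]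

theorem ro_mul {κ : Type} [Fintype κ] (G : Matrix κ κ F) (x y z w : κ → F) :
    ro G x y * ro G z w = (y ⬝ᵥ G *ᵥ z) • ro G x w := by
  rw [ro, ro, ro, vecMulVec_mul_vecMulVec, dotProduct_mulVec]; ext; simp [vecMulVec_apply]; ring

theorem ro_adj {κ : Type} [Fintype κ] {G : Matrix κ κ F} (hs : Gᵀ = G) (x y : κ → F) :
    Adj G (ro G x y) (ro G y x) := by
  rw [Adj, ro, ro, transpose_vecMulVec, vecMulVec_mul, mul_vecMulVec, ← mulVec_transpose G y, hs]

theorem TD.four_case {G : Matrix (Fin 4) (Fin 4) F} {c : F} {Q : ((Fin t → Fin 4) → F) → F} (h : TD t G c Q)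
    (ht : 2 ≤ t) (hG : ∀ x, x ⬝ᵥ G *ᵥ x = 0) :
    ∃ K : Subgroup (GL (Fin t → Fin 4) F), tensorWreathStandard 4 t F ⊓ ⁅isometryGroup F Q, isometryGroup F Q⁆ < K ∧
      K < ⁅isometryGroup F Q, isometryGroup F Q⁆ := by
  obtain ⟨t, rfl⟩ : ∃ s, t = s + 2 := ⟨t - 2, by omega⟩
  have hd : ∀ i, G i i = 0 := fun i => by simpa using hG (Pi.single i 1)
  have sy : ∀ x y, x ⬝ᵥ G *ᵥ y = y ⬝ᵥ G *ᵥ x := fun x y => by
    rw [dotProduct_mulVec, ← mulVec_transpose, h.symm, dotProduct_comm]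
  have nd : ∀ x, x ≠ 0 → ∃ y, x ⬝ᵥ G *ᵥ y = 1 := fun x hx => by
    obtain ⟨y, hy⟩ := exists_fog_right (σ := RingHom.id F) h.unit hx
    rw [fog_eq] at hy
    exact ⟨(x ⬝ᵥ G *ᵥ y)⁻¹ • y, by rw [mulVec_smul, dotProduct_smul]; exact inv_mul_cancel₀ hy⟩
  have p0 : (Pi.single 0 1 : Fin 4 → F) ≠ 0 := by simp
  generalize (Pi.single 0 1 : Fin 4 → F) = p at p0
  obtain ⟨p', hp⟩ := nd p p0
  obtain ⟨r, r1, r0⟩ := Submodule.exists_mem_ne_zero_of_ne_bot (LinearMap.ker_ne_bot_of_finrank_lt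
    (f := ((dotProductBilin F F p).prod (dotProductBilin F F p')).comp (Matrix.mulVecLin G)) (by simp))
  obtain ⟨r1, r2⟩ : p ⬝ᵥ G *ᵥ r = 0 ∧ p' ⬝ᵥ G *ᵥ r = 0 := by simpa using r1
  obtain ⟨r'', hr⟩ := nd r r0
  obtain ⟨r', r3, r4⟩ : ∃ r', r ⬝ᵥ G *ᵥ r' = 1 ∧ p' ⬝ᵥ G *ᵥ r' = 0 := ⟨r'' - (p' ⬝ᵥ G *ᵥ r'') • p,
    by simp [mulVec_sub, mulVec_smul, hr, sy r p, r1], by simp [mulVec_sub, mulVec_smul, sy p' p, hp]⟩
  have w : ∀ x y, x ⬝ᵥ G *ᵥ y = 0 → W1 G True (ro G x y + ro G y x) ∧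
      (ro G x y + ro G y x) * (ro G x y + ro G y x) = 0 := fun x y hxy => by
    have : (ro G x y + ro G y x) * (ro G x y + ro G y x) = 0 := by simp [mul_add, add_mul, ro_mul, hG, sy y x, hxy]
    refine ⟨⟨?_, ⟨0, by rw [this, zero_smul]⟩, fun _ => ⟨_, _, ro_adj h.symm x y, rfl⟩⟩, this⟩
    rw [Adj, transpose_add, add_mul, mul_add, ro_adj h.symm x y, ro_adj h.symm y x, add_comm]
  have cl := cl_four h.two h.unit h.symm hd
  have al : ∀ x, x ⬝ᵥ G *ᵥ ((ro G p' r' + ro G r' p') *ᵥ x) = 0 := fun x => by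
    simp only [add_mulVec, ro_mulVec, mulVec_add, mulVec_smul, dotProduct_add, dotProduct_smul, smul_eq_mul, sy x]
    linear_combination (r' ⬝ᵥ G *ᵥ x * p' ⬝ᵥ G *ᵥ x) * h.two
  have mm : ro G p p * ro G p p = 0 := by simp [ro_mul, hG]
  refine h.main (b := True) (i := 0) (j := 1) cl (by simp [Fin.ext_iff]) hG (w p r r1).1 (w p' r' r4).1 (w p r r1).2 ?_
    ⟨0, by simpa using al⟩ (g := Function.update (fun _ => 1) 1 (ro G p p))
    (Function.update_of_ne (by simp [Fin.ext_iff]) _ _) (adj_update (fun _ => adj_one G) _ (ro_adj h.symm p p))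
    (by rw [← slot_apply, ← map_mul, mm, map_zero]) ⟨0, by simpa using al⟩ fun s hs => ?_
  · obtain ⟨s, hs⟩ := cl _ _ (w p r r1).1 (w p' r' r4).1
    have := congrArg (fun M => p' ⬝ᵥ G *ᵥ (M *ᵥ p)) hs
    simp only [add_mulVec, ← mulVec_mulVec, ro_mulVec, mulVec_add, mulVec_smul, dotProduct_add, dotProduct_smul,
      smul_eq_mul, sy r p, sy p' p, sy r p', r1, r2, r3, hp, hG, smul_mulVec, one_mulVec] at this
    rw [hs, show s = 1 by linear_combination -this, one_smul]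
  · rw [← slot_apply, ← map_mul, ← map_mul, ← map_add] at hs
    have h1 := algHom_injective (slot (1 : Fin (t + 2))) (hs.trans (show _ = slot 1 (s • 1) by simp))
    have := congrArg (fun M => r ⬝ᵥ G *ᵥ (M *ᵥ p')) h1
    simp only [add_mulVec, ← mulVec_mulVec, ro_mulVec, mulVec_add, mulVec_smul, dotProduct_add, dotProduct_smul,
      smul_eq_mul, sy r p, sy p' p, sy r p', sy r' p', r1, r2, r3, r4, hp, hG, smul_mulVec, one_mulVec] at this
    exact one_ne_zero (by linear_combination this : (1 : F) = 0)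

end H14.Tw
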